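import Cfsg.Agent.H566.RC.Kill4

/-!
# S3510, triality: the twisted composition `dia τ`, `τ` a `ν`-semilinear octonion automorphism, `τ³ = 1` (helper566)

The rotation argument (`H566/RC/{Dia,Rot,Kill1-4}`) for semilinear `τ`: the pair `a, b` has `Q a, polar a b ∈ Fix ν`.
-/

set_option autoImplicit false
set_option linter.unusedSectionVars false

namespace Cfsg.Agent.H566.RC

open Module QuadraticMap Cfsg.Agent.LieClassical.OrthCore Cfsg.Agent.LieClassical.OrthTrans
  Cfsg.Agent.LieClassical.OrthSimple Cfsg.Agent.ClassicalGeometry.OrthAut1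
  Cfsg.Agent.ClassicalGeometry.OrthSemi Cfsg.Agent.H198.Classes
  Cfsg.Agent.LieClassical.QuadForms Cfsg.Agent.H198.ClassesPlus
  Cfsg.Agent.ClassicalGeometry.TrialityOct Cfsg.Agent.ClassicalGeometry.Triality
  Cfsg.Agent.ClassicalGeometry.TrialitySpaces Cfsg.Agent.H198.TriBase Cfsg.Agent.H198.TriAut
  Cfsg.Agent.H198.TriDia Cfsg.Agent.H198.TriTC Cfsg.Agent.H106.RC Cfsg.Agent.H93.RC

universe u

variable {F : Type u} [Field F]

/-- a `ν`-semilinear octonion automorphism with `τ³ = 1` -/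
structure Sa (τ : G8 F) (ν : F ≃+* F) : Prop where
  tri : TriS τ τ τ
  ss : IsSS (plusForm 4 F) ν 1 τ.1
  cube : τ ^ 3 = 1
  cubeF : ∀ a, ν (ν (ν a)) = a

theorem Au.sa {τ : G8 F} (h : Au τ) : Sa τ (RingEquiv.refl F) := by
  obtain ⟨c, hc⟩ := h.lin
  have h1 := aut_mult h.tri hc
  exact ⟨h.tri, h1 ▸ hc, h.cube, fun _ => rfl⟩

section

variable {τ : G8 F} {ν : F ≃+* F} (h : Sa τ ν)

include h

theorem Sa.add (x y : V8 F) : τ.1 (x + y) = τ.1 x + τ.1 y := h.ss.add x y

theorem Sa.smul (a : F) (x : V8 F) : τ.1 (a • x) = ν a • τ.1 x := h.ss.smul a x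

theorem Sa.norm (x : V8 F) : plusForm 4 F (τ.1 x) = ν (plusForm 4 F x) := by
  have := h.ss.form x
  rwa [one_mul] at this

theorem Sa.polar_map (x y : V8 F) : polar (plusForm 4 F) (τ.1 x) (τ.1 y) = ν (polar (plusForm 4 F) x y) := by
  simp only [QuadraticMap.polar]
  rw [← h.add, h.norm, h.norm, h.norm, map_sub, map_sub]

theorem Sa.t3 (x : V8 F) : τ.1 (τ.1 (τ.1 x)) = x := by
  have h1 := congrArg (fun z : G8 F => z.1 x) h.cube
  rw [pow_three] at h1
  exact h1

theorem Sa.inv_eq (x : V8 F) : τ⁻¹.1 x = τ.1 (τ.1 x) := by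
  have h1 : τ⁻¹.1 (τ.1 (τ.1 (τ.1 x))) = τ.1 (τ.1 x) := τ.1.symm_apply_apply _
  rwa [h.t3] at h1

theorem Sa.mul (x y : V8 F) : τ.1 (omul x y) = omul (τ.1 x) (τ.1 y) := h.tri x y

theorem Sa.conj (x : V8 F) : τ.1 (oconj x) = oconj (τ.1 x) := aut_oconj h.tri x

theorem Sa.dia_eq (u w : V8 F) : dia τ u w = omul (oconj (τ.1 (τ.1 u))) (oconj (τ.1 w)) := by
  rw [dia, h.inv_eq, h.conj, h.conj, h.conj]

theorem Sa.dia_add_left (u u' w : V8 F) : dia τ (u + u') w = dia τ u w + dia τ u' w := by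
  rw [h.dia_eq, h.dia_eq, h.dia_eq, h.add, h.add, oconj_add, add_omul]

theorem Sa.dia_add_right (u w w' : V8 F) : dia τ u (w + w') = dia τ u w + dia τ u w' := by
  rw [h.dia_eq, h.dia_eq, h.dia_eq, h.add, oconj_add, omul_add]

theorem Sa.dia_smul_left (c : F) (u w : V8 F) : dia τ (c • u) w = ν (ν c) • dia τ u w := by
  rw [h.dia_eq, h.dia_eq, h.smul, h.smul, oconj_smul, smul_omul]

theorem Sa.dia_smul_right (c : F) (u w : V8 F) : dia τ u (c • w) = ν c • dia τ u w := by
  rw [h.dia_eq, h.dia_eq, h.smul, oconj_smul, omul_smul]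

theorem Sa.dia_zero_left (w : V8 F) : dia τ 0 w = 0 := by
  have := h.dia_smul_left 0 0 w
  rwa [zero_smul, map_zero, map_zero, zero_smul] at this

theorem Sa.dia_zero_right (w : V8 F) : dia τ w 0 = 0 := by
  have := h.dia_smul_right 0 w 0
  rwa [zero_smul, map_zero, zero_smul] at this

theorem Sa.dia_neg_left (u w : V8 F) : dia τ (-u) w = - dia τ u w := by
  rw [eq_neg_iff_add_eq_zero, ← h.dia_add_left, neg_add_cancel, h.dia_zero_left]

theorem Sa.dia_norm (u w : V8 F) :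
    plusForm 4 F (dia τ u w) = ν (ν (plusForm 4 F u)) * ν (plusForm 4 F w) := by
  rw [h.dia_eq, norm_omul, norm_oconj, norm_oconj, h.norm, h.norm, h.norm]

/-- `(u ⋄ w) ⋄ u = ν(Q u) w` -/
theorem Sa.dia_dia (u w : V8 F) : dia τ (dia τ u w) u = ν (plusForm 4 F u) • w := by
  have e1 : oconj (τ.1 (τ.1 (dia τ u w))) = omul w (τ.1 u) := by
    rw [h.dia_eq, h.mul, h.mul, h.conj, h.conj, h.t3, h.conj, h.conj, h.t3, oconj_omul, oconj_oconj, oconj_oconj]
  rw [h.dia_eq (dia τ u w) u, e1, omul_omul_oconj, h.norm]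

/-- `u ⋄ (w ⋄ u) = ν²(Q u) w` -/
theorem Sa.dia_dia' (u w : V8 F) : dia τ u (dia τ w u) = ν (ν (plusForm 4 F u)) • w := by
  have e1 : oconj (τ.1 (dia τ w u)) = omul (τ.1 (τ.1 u)) w := by
    rw [h.dia_eq, h.mul, h.conj, h.conj, h.t3, oconj_omul, oconj_oconj, oconj_oconj]
  rw [h.dia_eq u (dia τ w u), e1, oconj_omul_omul, h.norm, h.norm]

theorem Sa.lin1 (u w z : V8 F) : dia τ (dia τ u w) z + dia τ (dia τ z w) u =
    ν (polar (plusForm 4 F) u z) • w := by
  have h1 := h.dia_dia (u + z) w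
  rw [h.dia_add_left, h.dia_add_left, h.dia_add_right, h.dia_add_right, h.dia_dia, h.dia_dia] at h1
  have h2 : plusForm 4 F (u + z) = plusForm 4 F u + plusForm 4 F z + polar (plusForm 4 F) u z := by
    rw [QuadraticMap.polar]; ring
  rw [h2, map_add, map_add, add_smul, add_smul] at h1
  have h3 : dia τ (dia τ u w) z + dia τ (dia τ z w) u =
      (ν (plusForm 4 F u) • w + dia τ (dia τ u w) z + (dia τ (dia τ z w) u + ν (plusForm 4 F z) • w)) -
        (ν (plusForm 4 F u) • w + ν (plusForm 4 F z) • w) := by abel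
  rw [h3, h1]
  abel

theorem Sa.lin2 (u w z : V8 F) : dia τ u (dia τ w z) + dia τ z (dia τ w u) =
    ν (ν (polar (plusForm 4 F) u z)) • w := by
  have h1 := h.dia_dia' (u + z) w
  rw [h.dia_add_right, h.dia_add_left, h.dia_add_right, h.dia_add_right, h.dia_dia', h.dia_dia'] at h1
  have h2 : plusForm 4 F (u + z) = plusForm 4 F u + plusForm 4 F z + polar (plusForm 4 F) u z := by
    rw [QuadraticMap.polar]; ring
  rw [h2, map_add, map_add, map_add, map_add, add_smul, add_smul] at h1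
  have h3 : dia τ u (dia τ w z) + dia τ z (dia τ w u) =
      (ν (ν (plusForm 4 F u)) • w + dia τ u (dia τ w z) + (dia τ z (dia τ w u) + ν (ν (plusForm 4 F z)) • w)) -
        (ν (ν (plusForm 4 F u)) • w + ν (ν (plusForm 4 F z)) • w) := by abel
  rw [h3, h1]
  abel

/-- associativity of the polar form -/
theorem Sa.assoc (u w z : V8 F) :
    ν (polar (plusForm 4 F) (dia τ u w) z) = polar (plusForm 4 F) u (dia τ w z) := by
  rw [← h.polar_map, h.dia_eq, h.mul, h.conj, h.conj, h.t3, polar_omul, oconj_oconj, h.dia_eq]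
  have e2 : ∀ x y : V8 F, polar (plusForm 4 F) (oconj x) (oconj y) = polar (plusForm 4 F) x y := by
    intro x y
    simp only [QuadraticMap.polar]
    rw [← oconj_add, norm_oconj, norm_oconj, norm_oconj]
  rw [← e2, oconj_oconj, oconj_omul]

end

/-- decomposition -/
theorem exists_dec' {τ : G8 F} {a b : V8 F} (k : Kp τ a b) (v : V8 F) : ∃ (α β : F) (w : V8 F), v = α • a + β • b + w ∧ polar (plusForm 4 F) w a = 0 ∧
    polar (plusForm 4 F) w b = 0 := by
  have hd : polar (plusForm 4 F) a b ^ 2 - 4 * plusForm 4 F a ^ 2 ≠ 0 := sub_ne_zero.2 k.disc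
  set c := polar (plusForm 4 F) a b with hc
  set κ := plusForm 4 F a with hκ
  set D := c ^ 2 - 4 * κ ^ 2 with hD
  set s := polar (plusForm 4 F) v a with hs
  set t := polar (plusForm 4 F) v b with ht
  have hba : polar (plusForm 4 F) b a = c := polar_comm _ _ _
  have haa : polar (plusForm 4 F) a a = 2 * κ := polar_self' a
  have hbb : polar (plusForm 4 F) b b = 2 * κ := by rw [polar_self', k.norm]
  refine ⟨(c * t - 2 * κ * s) / D, (c * s - 2 * κ * t) / D,
    v - (((c * t - 2 * κ * s) / D) • a + ((c * s - 2 * κ * t) / D) • b), by abel, ?_, ?_⟩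
  · rw [polar_sub_left, polar_add_left, polar_smul_left, polar_smul_left, haa, hba, ← hs, smul_eq_mul, smul_eq_mul]
    field_simp
    rw [hD]
    ring
  · rw [polar_sub_left, polar_add_left, polar_smul_left, polar_smul_left, hbb, ← hc, ← ht, smul_eq_mul, smul_eq_mul]
    field_simp
    rw [hD]
    ring

/-- a composition plane with a pair of vectors over the fixed field -/
structure Kq (τ : G8 F) (ν : F ≃+* F) (a b : V8 F) : Prop where
  kp : Kp τ a b
  fk : ν (plusForm 4 F a) = plusForm 4 F a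
  fc : ν (polar (plusForm 4 F) a b) = polar (plusForm 4 F) a b

section

variable {τ : G8 F} {ν : F ≃+* F} (h : Sa τ ν) {a b : V8 F} (k : Kq τ ν a b)

include h

theorem Sa.S_add (v w : V8 F) : Sm τ a b (v + w) = Sm τ a b v + Sm τ a b w := by
  unfold Sm
  rw [h.dia_add_right, h.dia_add_left]

theorem Sa.S_smul (c : F) (v : V8 F) : Sm τ a b (c • v) = c • Sm τ a b v := by
  unfold Sm
  rw [h.dia_smul_right, h.dia_smul_left, h.cubeF]

theorem Sa.R_add (v w : V8 F) : Rm τ a b (v + w) = Rm τ a b v + Rm τ a b w := by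
  unfold Rm
  rw [h.dia_add_left, h.dia_add_right]

theorem Sa.R_smul (c : F) (v : V8 F) : Rm τ a b (c • v) = c • Rm τ a b v := by
  unfold Rm
  rw [h.dia_smul_left, h.dia_smul_right, h.cubeF]

include k

theorem q_a_m : dia τ a (dia τ a b) = plusForm 4 F a • b := by
  rw [k.kp.comm]
  have := h.dia_dia' a b
  rwa [k.fk, k.fk] at this

theorem q_b_m : dia τ b (dia τ a b) = plusForm 4 F a • a := by
  rw [h.dia_dia', k.kp.norm, k.fk, k.fk]

theorem q_m_b : dia τ (dia τ a b) b = plusForm 4 F a • a := by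
  rw [k.kp.comm, h.dia_dia, k.kp.norm, k.fk]

theorem q_m_a : dia τ (dia τ a b) a = plusForm 4 F a • b := by
  rw [h.dia_dia, k.fk]

theorem q_fc' : ν (polar (plusForm 4 F) b a) = polar (plusForm 4 F) a b := by
  rw [polar_comm, k.fc]

theorem q_bb_a : dia τ (dia τ b b) a = polar (plusForm 4 F) a b • b - plusForm 4 F a • a := by
  have h1 := h.lin1 b b a
  rw [q_m_b h k, q_fc' h k] at h1
  rw [← h1, add_sub_cancel_right]

theorem q_a_bb : dia τ a (dia τ b b) = polar (plusForm 4 F) a b • b - plusForm 4 F a • a := by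
  have h1 := h.lin2 a b b
  rw [← k.kp.comm, q_b_m h k, k.fc, k.fc] at h1
  rw [← h1, add_sub_cancel_right]

theorem qS_a : Sm τ a b a = plusForm 4 F a • b := by
  unfold Sm
  rw [← k.kp.comm, q_m_a h k]

theorem qS_b : Sm τ a b b = polar (plusForm 4 F) a b • b - plusForm 4 F a • a := q_bb_a h k

theorem qR_a : Rm τ a b a = plusForm 4 F a • b := q_a_m h k

theorem qR_b : Rm τ a b b = polar (plusForm 4 F) a b • b - plusForm 4 F a • a := q_a_bb h k

/-- left multiplication by elements of `K` preserves `W` -/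
theorem q_perp_left {w x : V8 F} (hwa : polar (plusForm 4 F) w a = 0) (hwb : polar (plusForm 4 F) w b = 0)
    (hx : x = a ∨ x = b) : polar (plusForm 4 F) (dia τ x w) a = 0 ∧ polar (plusForm 4 F) (dia τ x w) b = 0 := by
  have key : ∀ y, (∃ α β : F, dia τ y x = α • a + β • b) → polar (plusForm 4 F) (dia τ x w) y = 0 := by
    rintro y ⟨α, β, hy⟩
    apply ν.injective
    rw [h.assoc, polar_comm, map_zero]
    apply ν.injective
    rw [h.assoc, hy, polar_add_right, polar_smul_right, polar_smul_right, hwa, hwb]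
    simp
  obtain ⟨α, β, hab⟩ := k.kp.ab
  have hba : ∃ α β : F, dia τ b a = α • a + β • b := ⟨α, β, by rw [← k.kp.comm]; exact hab⟩
  rcases hx with rfl | rfl
  · exact ⟨key _ k.kp.aa, key _ hba⟩
  · exact ⟨key _ ⟨α, β, hab⟩, key _ k.kp.bb⟩

/-- right multiplication by elements of `K` preserves `W` -/
theorem q_perp_right {w x : V8 F} (hwa : polar (plusForm 4 F) w a = 0) (hwb : polar (plusForm 4 F) w b = 0)
    (hx : x = a ∨ x = b) : polar (plusForm 4 F) (dia τ w x) a = 0 ∧ polar (plusForm 4 F) (dia τ w x) b = 0 := by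
  have key : ∀ y, (∃ α β : F, dia τ x y = α • a + β • b) → polar (plusForm 4 F) (dia τ w x) y = 0 := by
    rintro y ⟨α, β, hy⟩
    apply ν.injective
    rw [h.assoc, hy, polar_add_right, polar_smul_right, polar_smul_right, hwa, hwb]
    simp
  obtain ⟨α, β, hab⟩ := k.kp.ab
  have hba : ∃ α β : F, dia τ b a = α • a + β • b := ⟨α, β, by rw [← k.kp.comm]; exact hab⟩
  rcases hx with rfl | rfl
  · exact ⟨key _ k.kp.aa, key _ ⟨α, β, hab⟩⟩
  · exact ⟨key _ hba, key _ k.kp.bb⟩

theorem qS_perp {w : V8 F} (hwa : polar (plusForm 4 F) w a = 0) (hwb : polar (plusForm 4 F) w b = 0) :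
    polar (plusForm 4 F) (Sm τ a b w) a = 0 ∧ polar (plusForm 4 F) (Sm τ a b w) b = 0 := by
  obtain ⟨h1, h2⟩ := q_perp_left h k hwa hwb (Or.inr rfl)
  exact q_perp_right h k h1 h2 (Or.inl rfl)

theorem qSR_w {w : V8 F} (hwa : polar (plusForm 4 F) w a = 0) (hwb : polar (plusForm 4 F) w b = 0) :
    Sm τ a b (Rm τ a b w) = (plusForm 4 F a ^ 2) • w := by
  obtain ⟨h1, h2⟩ := q_perp_right h k hwa hwb (Or.inr rfl)
  unfold Sm Rm
  have e1 := h.lin2 b a (dia τ w b)
  rw [polar_comm, h2, map_zero, map_zero, zero_smul] at e1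
  have e2 := h.lin1 (dia τ w b) (dia τ a b) a
  rw [h1, map_zero, zero_smul, q_a_m h k] at e2
  have e3 : dia τ b (dia τ a (dia τ w b)) = - dia τ (dia τ w b) (dia τ a b) := eq_neg_of_add_eq_zero_left e1
  rw [e3, h.dia_neg_left, eq_neg_of_add_eq_zero_left e2, neg_neg, h.dia_smul_left, h.dia_dia', k.kp.norm, k.fk, k.fk,
    smul_smul, pow_two]

/-- **`g S R = κ²`** -/
theorem q_gSR (v : V8 F) : gm a b (Sm τ a b (Rm τ a b v)) = (plusForm 4 F a ^ 2) • v := by
  obtain ⟨α, β, w, rfl, hwa, hwb⟩ := exists_dec' k.kp v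
  have hne := k.kp.ne
  have ea : gm a b (Sm τ a b (Rm τ a b a)) = (plusForm 4 F a ^ 2) • a := by
    rw [qR_a h k, h.S_smul, qS_b h k, gm_smul, sub_eq_add_neg, gm_add, ← neg_smul, gm_smul, gm_smul, gm_a k.kp, gm_b k.kp]
    generalize polar (plusForm 4 F) a b = c at *
    generalize plusForm 4 F a = κ at *
    match_scalars <;> field_simp <;> ring
  have eb : gm a b (Sm τ a b (Rm τ a b b)) = (plusForm 4 F a ^ 2) • b := by
    rw [qR_b h k, sub_eq_add_neg, ← neg_smul, h.S_add, h.S_smul, h.S_smul, qS_b h k, qS_a h k, gm_add, gm_smul,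
      gm_smul, gm_smul, sub_eq_add_neg, gm_add, ← neg_smul, gm_smul, gm_smul, gm_a k.kp, gm_b k.kp]
    generalize polar (plusForm 4 F) a b = c at *
    generalize plusForm 4 F a = κ at *
    match_scalars <;> field_simp <;> ring
  have ew : gm a b (Sm τ a b (Rm τ a b w)) = (plusForm 4 F a ^ 2) • w := by
    rw [qSR_w h k hwa hwb, gm_smul, gm_w hwa hwb]
  rw [h.R_add, h.R_add, h.R_smul, h.R_smul, h.S_add, h.S_add, h.S_smul, h.S_smul, gm_add, gm_add, gm_smul,
    gm_smul, ea, eb, ew]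
  module

/-- **`g S = S g`** -/
theorem q_gS (v : V8 F) : gm a b (Sm τ a b v) = Sm τ a b (gm a b v) := by
  obtain ⟨α, β, w, rfl, hwa, hwb⟩ := exists_dec' k.kp v
  have hne := k.kp.ne
  have ea : gm a b (Sm τ a b a) = Sm τ a b (gm a b a) := by
    rw [qS_a h k, gm_a k.kp, sub_eq_add_neg, ← neg_smul, h.S_add, h.S_smul, h.S_smul, qS_a h k, qS_b h k, gm_smul,
      gm_b k.kp]
    generalize polar (plusForm 4 F) a b = c at *
    generalize plusForm 4 F a = κ at *
    match_scalars <;> field_simp <;> ring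
  have eb : gm a b (Sm τ a b b) = Sm τ a b (gm a b b) := by
    rw [qS_b h k, gm_b k.kp, sub_eq_add_neg, ← neg_smul, gm_add, gm_smul, gm_smul, gm_a k.kp, gm_b k.kp,
      sub_eq_add_neg _ b, h.S_add, h.S_smul, qS_a h k]
    have e1 : Sm τ a b (-b) = - Sm τ a b b := by
      have := h.S_smul (a := a) (b := b) (-1) b
      rwa [neg_one_smul, neg_one_smul] at this
    rw [e1, qS_b h k]
    generalize polar (plusForm 4 F) a b = c at *
    generalize plusForm 4 F a = κ at *
    match_scalars <;> field_simp <;> ring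
  have ew : gm a b (Sm τ a b w) = Sm τ a b (gm a b w) := by
    obtain ⟨h1, h2⟩ := qS_perp h k hwa hwb
    rw [gm_w hwa hwb, gm_w h1 h2]
  rw [h.S_add, h.S_add, h.S_smul, h.S_smul, gm_add, gm_add, gm_smul, gm_smul, ea, eb, ew, gm_add, gm_add, gm_smul,
    gm_smul, h.S_add, h.S_add, h.S_smul, h.S_smul]

/-- `S² = c S - κ²` on `K` -/
theorem qSS {v : V8 F} (hv : InK a b v) :
    Sm τ a b (Sm τ a b v) = polar (plusForm 4 F) a b • Sm τ a b v - (plusForm 4 F a ^ 2) • v := by
  obtain ⟨α, β, rfl⟩ := hv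
  rw [h.S_add, h.S_smul, h.S_smul, qS_a h k, qS_b h k, sub_eq_add_neg, ← neg_smul, h.S_add, h.S_smul, h.S_smul,
    h.S_smul, h.S_add, h.S_smul, h.S_smul, qS_a h k, qS_b h k]
  module

end

end Cfsg.Agent.H566.RC
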