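import Cfsg.Agent.H566.RC.Semi

/-!
# S3510, triality: the rotation argument for semilinear `τ` (helper566), continued
-/

set_option autoImplicit false
set_option linter.unusedSectionVars false

namespace Cfsg.Agent.H566.RC

open Module QuadraticMap Cfsg.Agent.LieClassical.OrthCore Cfsg.Agent.LieClassical.OrthTrans
  Cfsg.Agent.LieClassical.OrthSimple Cfsg.Agent.ClassicalGeometry.OrthAut1
  Cfsg.Agent.ClassicalGeometry.OrthSemi Cfsg.Agent.H198.Classes
  Cfsg.Agent.LieClassical.QuadForms Cfsg.Agent.H198.ClassesPlus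
  Cfsg.Agent.ClassicalGeometry.TrialityOct Cfsg.Agent.ClassicalGeometry.Triality
  Cfsg.Agent.ClassicalGeometry.TrialitySpaces Cfsg.Agent.H198.TriBase Cfsg.Agent.H198.TriAut
  Cfsg.Agent.H198.TriDia Cfsg.Agent.H198.TriTC Cfsg.Agent.H106.RC Cfsg.Agent.H93.RC

universe u

variable {F : Type u} [Field F]

section

variable {τ : G8 F} {ν : F ≃+* F} (h : Sa τ ν) {a b : V8 F} (k : Kq τ ν a b)

include h k

theorem q_InK_S {v : V8 F} (hv : InK a b v) : InK a b (Sm τ a b v) := by
  obtain ⟨α, β, rfl⟩ := hv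
  rw [h.S_add, h.S_smul, h.S_smul, qS_a h k, qS_b h k]
  refine ⟨-β * plusForm 4 F a, α * plusForm 4 F a + β * polar (plusForm 4 F) a b, by module⟩

theorem q_ac_mul (z w : QA a b) {v : V8 F} (hv : InK a b v) : ac τ a b (z * w) v = ac τ a b z (ac τ a b w v) := by
  unfold ac
  rw [h.S_add, h.S_smul, h.S_smul, qSS h k hv, QuadraticAlgebra.re_mul, QuadraticAlgebra.im_mul]
  module

theorem q_InK_ac {v : V8 F} (hv : InK a b v) (z : QA a b) : InK a b (ac τ a b z v) :=
  (hv.smul _).add ((q_InK_S h k hv).smul _)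

theorem q_gm_ac {v : V8 F} (hv : InK a b v) : gm a b v = ac τ a b (zg a b) v := by
  obtain ⟨α, β, rfl⟩ := hv
  have hne := k.kp.ne
  rw [gm_add, gm_smul, gm_smul, gm_a k.kp, gm_b k.kp]
  unfold ac zg
  dsimp only
  rw [h.S_add, h.S_smul, h.S_smul, qS_a h k, qS_b h k]
  generalize polar (plusForm 4 F) a b = c at *
  generalize plusForm 4 F a = κ at *
  match_scalars <;> field_simp <;> ring

theorem q_gm_iter {v : V8 F} (hv : InK a b v) (n : ℕ) : (gm a b)^[n] v = ac τ a b (zg a b ^ n) v := by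
  induction n with
  | zero => rw [pow_zero, ac_one]; rfl
  | succ n ih => rw [Function.iterate_succ_apply', ih, q_gm_ac h k (q_InK_ac h k hv _), ← q_ac_mul h k _ _ hv,
      ← pow_succ']

theorem q_ac_eq {z : QA a b} {c : F} (hz : ac τ a b z a = c • a) : z = QuadraticAlgebra.C c := by
  unfold ac at hz
  rw [qS_a h k] at hz
  have h1 : (z.re - c) • a + (z.im * plusForm 4 F a) • b = 0 := by
    rw [sub_smul, mul_smul, ← hz]
    abel
  obtain ⟨h2, h3⟩ := indep k.kp h1
  exact QuadraticAlgebra.ext (sub_eq_zero.1 h2) ((mul_eq_zero.1 h3).resolve_right k.kp.ne)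

omit h in
theorem q_gm_b_ne : gm a b b ≠ b := by
  intro he
  rw [gm_b k.kp] at he
  have h1 : (polar (plusForm 4 F) a b / plusForm 4 F a) • a + (-2 : F) • b = 0 := by
    have : (polar (plusForm 4 F) a b / plusForm 4 F a) • a + (-2 : F) • b =
      ((polar (plusForm 4 F) a b / plusForm 4 F a) • a - b) - b := by module
    rw [this, he, sub_self]
  obtain ⟨h2, h3⟩ := indep k.kp h1
  apply k.kp.disc
  have h4 : polar (plusForm 4 F) a b = 0 := (div_eq_zero_iff.1 h2).resolve_right k.kp.ne
  have h5 : (4 : F) = 0 := by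
    have : (4 : F) = (-2) * (-2) := by norm_num
    rw [this, h3, zero_mul]
  rw [h4, h5]
  ring

omit h k in
theorem iter_add (n : ℕ) (x y : V8 F) : (gm a b)^[n] (x + y) = (gm a b)^[n] x + (gm a b)^[n] y := by
  induction n with
  | zero => rfl
  | succ n ih => rw [Function.iterate_succ_apply', ih, gm_add, Function.iterate_succ_apply',
      Function.iterate_succ_apply']

omit h k in
theorem iter_smul (n : ℕ) (c : F) (x : V8 F) : (gm a b)^[n] (c • x) = c • (gm a b)^[n] x := by
  induction n with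
  | zero => rfl
  | succ n ih => rw [Function.iterate_succ_apply', ih, gm_smul, Function.iterate_succ_apply']

/-- an element of `p`-power order is trivial -/
theorem q_iter_p {p : ℕ} [Fact p.Prime] [CharP F p] {n : ℕ} (hn : ∀ v, (gm a b)^[n * p] v = v) (v : V8 F) :
    (gm a b)^[n] v = v := by
  have h1 : zg a b ^ n = 1 := by
    apply qa_pow k.kp.disc (p := p)
    rw [← pow_mul]
    have h2 := hn a
    rw [q_gm_iter h k inK_a] at h2
    have h3 : ac τ a b (zg a b ^ (n * p)) a = (1 : F) • a := by rw [h2, one_smul]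
    rw [q_ac_eq h k h3, QuadraticAlgebra.C_one]
  obtain ⟨α, β, w, rfl, hwa, hwb⟩ := exists_dec' k.kp v
  have hw : (gm a b)^[n] w = w := Function.iterate_fixed (gm_w hwa hwb) n
  rw [iter_add, hw, q_gm_iter h k ⟨α, β, rfl⟩, h1, ac_one]

theorem q_exists_not_inK (hG : Good (plusForm 4 F)) [Finite F] {w : V8 F} (hQ : plusForm 4 F w ≠ 0) :
    ∃ w' ∈ Wp a b, ¬ InK a b (dia τ w w') := by
  obtain ⟨h1, h2, h3⟩ := Wp_facts k.kp hG
  by_contra hcon
  push Not at hcon
  let L : V8 F →ₛₗ[(ν : F →+* F)] V8 F :=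
    { toFun := fun v => dia τ w v
      map_add' := fun x y => h.dia_add_right w x y
      map_smul' := fun c x => h.dia_smul_right c w x }
  have hinj : Function.Injective L := by
    rw [injective_iff_map_eq_zero]
    intro v hv
    have h4 := h.dia_dia w v
    have h5 : dia τ w v = 0 := hv
    rw [h5, h.dia_zero_left] at h4
    exact (smul_eq_zero.1 h4.symm).resolve_left (fun h0 => hQ (by
      rw [← map_zero ν] at h0
      exact ν.injective h0))
  -- counting
  have hfin : Finite (V8 F) := Module.finite_of_finite F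
  have e1 : Nat.card (Wp a b) = Nat.card F ^ 6 := by
    rw [Module.natCard_eq_pow_finrank (K := F), h2]
  have e2 : Nat.card (Submodule.span F {a, b}) ≤ Nat.card F ^ 2 := by
    rw [Module.natCard_eq_pow_finrank (K := F)]
    apply Nat.pow_le_pow_right Nat.card_pos
    classical
    refine (finrank_span_le_card ({a, b} : Set (V8 F))).trans ?_
    rw [Set.toFinset_insert, Set.toFinset_singleton]
    exact Finset.card_le_two
  let f : Wp a b → Submodule.span F {a, b} := fun v => ⟨dia τ w v, by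
    obtain ⟨α, β, h8⟩ := hcon v v.2
    rw [Submodule.mem_span_pair]
    exact ⟨α, β, h8.symm⟩⟩
  have hf : Function.Injective f := fun x y hxy => Subtype.ext (hinj (congrArg Subtype.val hxy))
  have e3 := Nat.card_le_card_of_injective f hf
  rw [e1] at e3
  have e4 := e3.trans e2
  have e5 : 1 < Nat.card F := Finite.one_lt_card
  have e6 := (Nat.pow_lt_pow_iff_right e5).2 (show 2 < 6 by norm_num)
  omega

/-- an automorphism of the product which preserves the plane and is scalar on `W` is trivial -/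
theorem q_eq_one_of_scalOn (hG : Good (plusForm 4 F)) [Finite F] {M : G8 F}
    (hM : IsSS (plusForm 4 F) (RingEquiv.refl F) 1 M.1)
    (hd : ∀ u w, M.1 (dia τ u w) = dia τ (M.1 u) (M.1 w)) (hs : ScalOn M (Wp a b)) (v : V8 F) : M.1 v = v := by
  obtain ⟨s, hs0, hs⟩ := hs
  obtain ⟨w, hw, hQ⟩ := exists_w k.kp hG
  have hadd : ∀ x y : V8 F, M.1 (x + y) = M.1 x + M.1 y := hM.add
  have hl : ∀ (c : F) (x : V8 F), M.1 (c • x) = c • M.1 x := fun c x => hM.smul c x
  have hQν : ν (plusForm 4 F w) ≠ 0 := fun h0 => hQ (by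
    rw [← map_zero ν] at h0
    exact ν.injective h0)
  -- `s = ± 1`
  have hs2 : s * s = 1 := by
    have h1 := hM.form w
    rw [hs w hw, QuadraticMap.map_smul, smul_eq_mul, one_mul, RingEquiv.refl_apply] at h1
    have h2 : (s * s - 1) * plusForm 4 F w = 0 := by linear_combination h1
    exact sub_eq_zero.1 ((mul_eq_zero.1 h2).resolve_right hQ)
  have hνs : ν s = s := by
    rcases mul_self_eq_one_iff.1 hs2 with h1 | h1
    · rw [h1, map_one]
    · rw [h1, map_neg, map_one]
  have key : ∀ y, y = a ∨ y = b → M.1 y = y := by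
    intro y hy
    have h1 : dia τ w y ∈ Wp a b := q_perp_right h k hw.1 hw.2 hy
    have h2 := hd (dia τ w y) w
    rw [h.dia_dia, hl, hs _ h1, hs _ hw, h.dia_smul_left, h.dia_smul_right, h.dia_dia, hνs, hνs, smul_smul, smul_smul,
      hs2, one_mul] at h2
    have h4 := congrArg (fun z => (ν (plusForm 4 F w))⁻¹ • z) h2
    simp only [smul_smul, inv_mul_cancel₀ hQν, one_smul] at h4
    exact h4
  obtain ⟨w', hw', hnot⟩ := q_exists_not_inK h k hG hQ
  obtain ⟨α, β, u, hu, hua, hub⟩ := exists_dec' k.kp (dia τ w w')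
  have hu0 : u ≠ 0 := by
    rintro rfl
    exact hnot ⟨α, β, by rw [hu, add_zero]⟩
  have e2 : s = 1 := by
    have h2 := hd w w'
    rw [hs _ hw, hs _ hw', h.dia_smul_left, h.dia_smul_right, hνs, hνs, smul_smul, hs2, one_smul, hu, hadd, hadd, hl,
      hl, key a (Or.inl rfl), key b (Or.inr rfl), hs u ⟨hua, hub⟩] at h2
    have h3 : (s - 1) • u = 0 := by
      rw [sub_smul, one_smul, sub_eq_zero]
      exact add_left_cancel h2
    exact sub_eq_zero.1 ((smul_eq_zero.1 h3).resolve_right hu0)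
  obtain ⟨γ, δ, x, rfl, hxa, hxb⟩ := exists_dec' k.kp v
  rw [hadd, hadd, hl, hl, key a (Or.inl rfl), key b (Or.inr rfl), hs x ⟨hxa, hxb⟩, e2, one_smul]

end

end Cfsg.Agent.H566.RC
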