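import Cfsg.Agent.H566.RC.Semi2

/-!
# S3510, triality: the KL lemma for semilinear `τ` (helper566)
-/

set_option autoImplicit false
set_option linter.unusedSectionVars false

namespace Cfsg.Agent.H566.RC

open Module QuadraticMap Cfsg.Agent.LieClassical.OrthCore Cfsg.Agent.LieClassical.OrthTrans
  Cfsg.Agent.LieClassical.OrthSimple Cfsg.Agent.ClassicalGeometry.OrthAut1
  Cfsg.Agent.ClassicalGeometry.OrthSemi Cfsg.Agent.H198.Classes
  Cfsg.Agent.LieClassical.QuadForms Cfsg.Agent.H198.ClassesPlus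
  Cfsg.Agent.ClassicalGeometry.TrialityOct Cfsg.Agent.ClassicalGeometry.Triality
  Cfsg.Agent.ClassicalGeometry.TrialitySpaces Cfsg.Agent.H198.TriBase Cfsg.Agent.H198.TriAut
  Cfsg.Agent.H198.TriDia Cfsg.Agent.H198.TriTC Cfsg.Agent.H106.RC Cfsg.Agent.H93.RC

universe u

variable {F : Type u} [Field F]

section

variable {τ : G8 F} {ν : F ≃+* F} (h : Sa τ ν) {a b : V8 F} (k : Kq τ ν a b)

include h k in
/-- the images of the rotation under the triality automorphism -/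
theorem q_exists_H (hG : Good (plusForm 4 F)) (β : ↥(E (plusForm 4 F)))
    (hβ : ∀ v, (β : V8 F ≃ₗ[F] V8 F) v = gm a b v) :
    ∃ H1 H2 : G8 F, (∀ v, H1.1 v = ((plusForm 4 F a)⁻¹ ^ 2) • Sm τ a b v) ∧ (∀ v, H2.1 v = Rm τ a b v) ∧
      xt hG τ * Psi _ (tg _ β) * (xt hG τ)⁻¹ = Psi _ H1 ∧ (xt hG τ)⁻¹ * Psi _ (tg _ β) * xt hG τ = Psi _ H2 := by
  have ha := k.kp.ne
  have hb : plusForm 4 F b ≠ 0 := by rw [k.kp.norm]; exact k.kp.ne
  have hνκ : ν (-(plusForm 4 F a)⁻¹) = -(plusForm 4 F a)⁻¹ := by rw [map_neg, map_inv₀, k.fk]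
  set c := scal (plusForm 4 F) (Units.mk0 (-(plusForm 4 F a)⁻¹) (neg_ne_zero.2 (inv_ne_zero ha))) with hc
  set d := scal (plusForm 4 F) (Units.mk0 (-(plusForm 4 F b)⁻¹) (neg_ne_zero.2 (inv_ne_zero hb))) with hd
  have hc' : ∀ v, c.1 v = (-(plusForm 4 F a)⁻¹ : F) • v := fun v => rfl
  have hd' : ∀ v, d.1 v = (-(plusForm 4 F b)⁻¹ : F) • v := fun v => rfl
  clear_value c d
  have eg : tg _ β = gamO _ ⟨refl (plusForm 4 F) a ha, refl_mem_O ha⟩ *
        gamO _ ⟨refl (plusForm 4 F) b hb, refl_mem_O hb⟩ := by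
      apply Subtype.ext
      ext1 v
      change (β : V8 F ≃ₗ[F] V8 F) v = refl (plusForm 4 F) a ha (refl (plusForm 4 F) b hb v)
      rw [refl_refl_gm, hβ]
  rw [gamO_refl, gamO_refl, ← hc, ← hd] at eg
  have eg' : tg _ β = c * bG a ha * (d * (kapG F * bG b hb * kapG F)) := by
    rw [eg]
    apply Subtype.ext
    ext1 v
    simp only [mulG, hc', hd', bG_apply, kapG_apply, oconj_smul]
  clear eg
  have ht : TriS (tg _ β) (c * lG a ha * (d * (kapG F * rG b hb * kapG F)))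
      (1 * rG a ha * (1 * (kapG F * lG b hb * kapG F))) := by
    rw [eg', hc, hd]
    exact ((tri_scal _).mul (tri_bG a ha)).mul ((tri_scal _).mul (tri_bG b hb).kap)
  have ht' : TriS (τ⁻¹ * tg _ β * τ) (τ⁻¹ * (c * lG a ha * (d * (kapG F * rG b hb * kapG F))) * τ)
      (τ⁻¹ * (1 * rG a ha * (1 * (kapG F * lG b hb * kapG F))) * τ) := (h.tri.inv.mul ht).mul h.tri
  have hi : ∀ x, τ⁻¹.1 x = τ.1 (τ.1 x) := h.inv_eq
  refine ⟨τ * (kapG F * (c * lG a ha * (d * (kapG F * rG b hb * kapG F))) * kapG F) * τ⁻¹,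
    kapG F * (τ⁻¹ * (1 * rG a ha * (1 * (kapG F * lG b hb * kapG F))) * τ) * kapG F, ?_, ?_, ?_, ?_⟩
  · intro v
    simp only [mulG, hc', hd', lG_apply, rG_apply, kapG_apply]
    unfold Sm
    rw [h.dia_eq (dia τ b v) a, h.dia_eq b v]
    simp only [hi, oconj_oconj, omul_smul, smul_smul, oconj_smul, h.smul, oconj_omul, h.mul, h.conj, h.t3, k.kp.norm]
    congr 1
    rw [map_mul, hνκ]
    ring
  · intro v
    simp only [mulG, one_mul, lG_apply, rG_apply, kapG_apply]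
    unfold Rm
    rw [h.dia_eq a, h.dia_eq v b]
    simp only [hi, oconj_oconj, oconj_omul, h.mul, h.conj, h.t3]
  · rw [xt, gen_1, rho_conj hG ht]
    exact (Psi_mi τ _).symm
  · rw [xt, gen_2]
    have e1 := rho_inv_conj hG ht'
    rw [Psi_im τ (tg _ β)] at e1
    exact e1

variable {G Ω : Type*} [Group G] [MulAction G Ω] {N : Subgroup G} {σ : P8 F →* G}

/-- powers of the rotation which are trivial in `G` -/
theorem q_pow_one_iff [Finite F] (k : Kp τ a b) (hG : Good (plusForm 4 F)) (hσ : Rp (plusForm 4 F) N σ)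
    {β : ↥(E (plusForm 4 F))} (hβ : ∀ v, (β : V8 F ≃ₗ[F] V8 F) v = gm a b v) (n : ℕ) :
    up σ β ^ n = 1 ↔ ∀ v, (gm a b)^[n] v = v := by
  rw [← map_pow]
  constructor
  · intro h1
    have h2 : β ^ n ∈ Subgroup.center ↥(E (plusForm 4 F)) := by
      rw [← hσ.rep.ker]; exact h1
    obtain ⟨c, hc⟩ := center_scalar hG h2
    obtain ⟨w, hw, hQ⟩ := exists_w k hG
    have hc' : ∀ v, (gm a b)^[n] v = c • v := by
      intro v
      rw [← hc v, ← tg_pow hβ]
      rfl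
    have h3 := hc' w
    rw [iter_W hw] at h3
    have hw0 : w ≠ 0 := by rintro rfl; exact hQ (QuadraticMap.map_zero _)
    have h4 : c = 1 := by
      have : (c - 1) • w = 0 := by rw [sub_smul, one_smul, ← h3, sub_self]
      exact sub_eq_zero.1 ((smul_eq_zero.1 this).resolve_right hw0)
    intro v
    rw [hc', h4, one_smul]
  · intro h1
    have h2 : β ^ n = 1 := by
      apply Subtype.ext
      apply LinearEquiv.ext
      intro v
      have := tg_pow hβ n v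
      rw [h1] at this
      exact this
    rw [h2, map_one]

include h k

/-- the elements of `G` attached to the rotation -/
theorem q_exists_B [Finite G] [Finite F] (hG : Good (plusForm 4 F)) (hE : Env G Ω N) (hσ : Rp (plusForm 4 F) N σ)
    {x₁ : G} (hL : La σ x₁ (xt hG τ)) :
    ∃ (B : G) (β : ↥(E (plusForm 4 F))) (H1 : G8 F), (∀ v, (β : V8 F ≃ₗ[F] V8 F) v = gm a b v) ∧ B = up σ β ∧
      (∀ v, H1.1 v = ((plusForm 4 F a)⁻¹ ^ 2) • Sm τ a b v) ∧ Lf (up σ) (x₁ * B * x₁⁻¹) H1 ∧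
      B * (x₁ * B * x₁⁻¹) = x₁ * B * x₁⁻¹ * B ∧
      B * (x₁ * B * x₁⁻¹) * (x₁ * (x₁ * B * x₁⁻¹) * x₁⁻¹) = 1 := by
  obtain ⟨β, hβ⟩ := exists_rot hG k.kp
  obtain ⟨H1, H2, hH1, hH2, e1, e2⟩ := q_exists_H h k hG β hβ
  have hLB : La σ (up σ β) (Psi _ (tg _ β)) := La.lf.2 (Lf.tg β)
  have hx3 : x₁ ^ 3 = 1 := by
    have h1 := hL.pow 3
    rw [xt_pow_three hG h.tri h.cube] at h1
    exact h1.eq hE hσ La.one
  have l1 : Lf (up σ) (x₁ * up σ β * x₁⁻¹) H1 := by
    rw [← La.lf, ← e1]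
    exact (hL.mul hLB).mul hL.inv
  have l2 : Lf (up σ) (x₁⁻¹ * up σ β * x₁) H2 := by
    rw [← La.lf, ← e2]
    exact (hL.inv.mul hLB).mul hL
  have e3 : x₁ * (x₁ * up σ β * x₁⁻¹) * x₁⁻¹ = x₁⁻¹ * up σ β * x₁ := by
    have h1 : x₁ * x₁ = x₁⁻¹ := by
      rw [eq_inv_iff_mul_eq_one, ← pow_two, ← pow_succ, hx3]
    calc x₁ * (x₁ * up σ β * x₁⁻¹) * x₁⁻¹ = (x₁ * x₁) * up σ β * (x₁ * x₁)⁻¹ := by group
      _ = _ := by rw [h1, inv_inv]
  have hsc : ∀ (c : F) v, gm a b (c • v) = c • gm a b v := fun c v => gm_smul c v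
  refine ⟨up σ β, β, H1, hβ, rfl, hH1, l1, ?_, ?_⟩
  · have m1 : Lf (up σ) (up σ β * (x₁ * up σ β * x₁⁻¹)) (tg _ β * H1) := (Lf.tg β).mul l1
    have m2 : Lf (up σ) (x₁ * up σ β * x₁⁻¹ * up σ β) (H1 * tg _ β) := l1.mul (Lf.tg β)
    have e4 : tg _ β * H1 = H1 * tg _ β := by
      apply Subtype.ext
      ext1 v
      change (tg _ β * H1).1 v = (H1 * tg _ β).1 v
      rw [mulG, mulG, tg_coe, tg_coe, hβ, hβ, hH1, hH1, hsc, q_gS h k]
    rw [← e4] at m2
    exact (La.lf.2 m1).eq hE hσ (La.lf.2 m2)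
  · have m1 := (((Lf.tg (ρ := up σ) β).mul l1).mul l2)
    rw [e3, (m1.eq_one_iff hG hE hσ.rep)]
    refine ⟨1, one_ne_zero, fun v => ?_⟩
    rw [mulG, mulG, tg_coe, hβ, hH1, hH2, hsc, q_gSR h k, smul_smul, ← mul_pow, inv_mul_cancel₀ k.kp.ne, one_pow]

theorem q_iter_H {H1 : G8 F} (hH1 : ∀ v, H1.1 v = ((plusForm 4 F a)⁻¹ ^ 2) • Sm τ a b v) (n : ℕ) :
    ∀ v ∈ Wp a b, (H1 ^ n).1 v ∈ Wp a b := by
  induction n with
  | zero => intro v hv; rw [pow_zero]; exact hv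
  | succ n ih =>
    intro v hv
    rw [pow_succ, mulG]
    apply ih
    rw [hH1]
    exact (Wp a b).smul_mem _ (qS_perp h k hv.1 hv.2)

/-- a `ρ`-fixed power of the rotation of order three is trivial -/
theorem q_fixed_triv [Finite F] (hG : Good (plusForm 4 F))
    {β : ↥(E (plusForm 4 F))} (hβ : ∀ v, (β : V8 F ≃ₗ[F] V8 F) v = gm a b v) {n : ℕ}
    (h3 : ∀ v, (gm a b)^[n * 3] v = v)
    (hc : Psi (plusForm 4 F) (tg _ (β ^ n)) * xt hG τ = xt hG τ * Psi (plusForm 4 F) (tg _ (β ^ n))) (v : V8 F) :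
    (gm a b)^[n] v = v := by
  -- the scalar
  obtain ⟨N₁, N₂, hN⟩ : tg (plusForm 4 F) (β ^ n) ∈ T1 F := by
    have h1 := gamO_mem_T1 hG (x := ⟨((β ^ n : ↥(E (plusForm 4 F))) : V8 F ≃ₗ[F] V8 F), E_le_O (β ^ n).2⟩) (β ^ n).2
    exact h1
  obtain ⟨c, hc0, hc⟩ := comm_mo hG h.tri hN hc
  have hmo : ∀ u w, mo τ τ u w = dia τ u w := by
    intro u w
    unfold mo dia
    rw [aut_oconj h.tri.inv]
  have hc' : ∀ u w, (gm a b)^[n] (dia τ u w) = c • dia τ ((gm a b)^[n] u) ((gm a b)^[n] w) := by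
    intro u w
    have := hc u w
    rwa [hmo, hmo, tg_pow hβ, tg_pow hβ, tg_pow hβ] at this
  obtain ⟨w, hw, hQ⟩ := exists_w k.kp hG
  have hQν : ν (plusForm 4 F w) ≠ 0 := fun h0 => hQ (by
    rw [← map_zero ν] at h0
    exact ν.injective h0)
  have key : ∀ y, y = a ∨ y = b → (gm a b)^[n] y = c • y := by
    intro y hy
    have h1 : dia τ w y ∈ Wp a b := q_perp_right h k hw.1 hw.2 hy
    have h2 := hc' (dia τ w y) w
    rw [h.dia_dia, iter_W h1, iter_W hw, h.dia_dia, iter_smul, smul_comm c] at h2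
    have h4 := congrArg (fun z => (ν (plusForm 4 F w))⁻¹ • z) h2
    simp only [smul_smul, inv_mul_cancel₀ hQν, one_smul] at h4
    rw [← mul_assoc, inv_mul_cancel₀ hQν, one_mul] at h4
    exact h4
  have hz : zg a b ^ n = QuadraticAlgebra.C c := by
    apply q_ac_eq h k
    rw [← q_gm_iter h k inK_a]
    exact key a (Or.inl rfl)
  have hz3 : c ^ 3 = 1 := by
    have h1 : zg a b ^ (n * 3) = QuadraticAlgebra.C 1 := by
      apply q_ac_eq h k
      rw [← q_gm_iter h k inK_a, h3, one_smul]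
    rw [pow_mul, hz, ← QuadraticAlgebra.C_pow] at h1
    exact QuadraticAlgebra.C_injective h1
  have hc2 : c ^ 2 = 1 := by
    have h1 : plusForm 4 F ((gm a b)^[n] a) = plusForm 4 F a := by
      rw [← tg_pow hβ]
      exact E_le_O (β ^ n).2 a
    rw [key a (Or.inl rfl), QuadraticMap.map_smul, smul_eq_mul] at h1
    have h2 : (c ^ 2 - 1) * plusForm 4 F a = 0 := by linear_combination h1
    exact sub_eq_zero.1 ((mul_eq_zero.1 h2).resolve_right k.kp.ne)
  have hc1 : c = 1 := by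
    have : c ^ 3 = c ^ 2 * c := pow_succ c 2
    rw [hz3, hc2, one_mul] at this
    exact this.symm
  obtain ⟨α, β', w', rfl, hwa, hwb⟩ := exists_dec' k.kp v
  have hw : (gm a b)^[n] w' = w' := iter_W ⟨hwa, hwb⟩ n
  rw [iter_add, iter_add, iter_smul, iter_smul, hw, key a (Or.inl rfl), key b (Or.inr rfl), hc1, one_smul, one_smul]

end

/-- a linear isometry preserving the plane preserves its complement -/
theorem wp_inv {M : G8 F} (hM : IsSS (plusForm 4 F) (RingEquiv.refl F) 1 M.1) {τ : G8 F} {a b : V8 F} (k : Kp τ a b)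
    (ha : InK a b (M.1 a)) (hb : InK a b (M.1 b)) {v : V8 F} (hv : v ∈ Wp a b) : M.1 v ∈ Wp a b := by
  have hpl : ∀ u w, polar (plusForm 4 F) (M.1 u) (M.1 w) = polar (plusForm 4 F) u w := by
    intro u w
    have := hM.polar u w
    rwa [one_mul] at this
  have hadd : ∀ x y : V8 F, M.1 (x + y) = M.1 x + M.1 y := hM.add
  have hl : ∀ (c : F) (x : V8 F), M.1 (c • x) = c • M.1 x := fun c x => hM.smul c x
  obtain ⟨α, β, ha⟩ := ha
  obtain ⟨γ, δ, hb⟩ := hb
  -- the determinant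
  have hD : α * δ - β * γ ≠ 0 := by
    intro h0
    have e1 : M.1 (δ • a + (-β) • b) = 0 := by
      rw [hadd, hl, hl, ha, hb]
      have : δ • (α • a + β • b) + -β • (γ • a + δ • b) = (α * δ - β * γ) • a := by module
      rw [this, h0, zero_smul]
    have e2 : M.1 ((-γ) • a + α • b) = 0 := by
      rw [hadd, hl, hl, ha, hb]
      have : -γ • (α • a + β • b) + α • (γ • a + δ • b) = (α * δ - β * γ) • b := by module
      rw [this, h0, zero_smul]
    have hz : ∀ x, M.1 x = 0 → x = 0 := fun x hx => M.1.injective (hx.trans hM.map_zero.symm)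
    obtain ⟨h1, h2⟩ := indep k (hz _ e1)
    obtain ⟨h3, h4⟩ := indep k (hz _ e2)
    rw [h4, neg_eq_zero.1 h2] at ha
    have h5 : a = 0 := hz a (by rw [ha]; module)
    exact k.ne (by rw [h5, QuadraticMap.map_zero])
  obtain ⟨hva, hvb⟩ := hv
  have e1 : polar (plusForm 4 F) (M.1 v) (M.1 a) = 0 := by rw [hpl, hva]
  have e2 : polar (plusForm 4 F) (M.1 v) (M.1 b) = 0 := by rw [hpl, hvb]
  rw [ha, polar_add_right, polar_smul_right, polar_smul_right, smul_eq_mul, smul_eq_mul] at e1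
  rw [hb, polar_add_right, polar_smul_right, polar_smul_right, smul_eq_mul, smul_eq_mul] at e2
  refine ⟨?_, ?_⟩
  · have : (α * δ - β * γ) * polar (plusForm 4 F) (M.1 v) a = 0 := by linear_combination δ * e1 - β * e2
    exact (mul_eq_zero.1 this).resolve_left hD
  · have : (α * δ - β * γ) * polar (plusForm 4 F) (M.1 v) b = 0 := by linear_combination α * e2 - γ * e1
    exact (mul_eq_zero.1 this).resolve_left hD

end Cfsg.Agent.H566.RC
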